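import Mathlib
import Cfsg.Agent.Lib.KInf.FusionCor
import Cfsg.Agent.Lib.KInf.Five

/-! Control of strong fusion by the K-infinity functors in p-stable groups. -/

set_option autoImplicit false

namespace Cfsg.Agent.Lib.KInf

universe u

/-- If every section of `G` is `p`-stable then a functor which is normal whenever `exists_degree_four`
does not apply controls strong fusion in every section. -/
theorem sf_kInf {p : ℕ} [Fact p.Prime] {G : Type u} [Group G] [Finite G]
    (hst : ∀ (K R : Subgroup G) [(R.subgroupOf K).Normal], Cfsg.IsNormalizerPStable p (↥K ⧸ R.subgroupOf K))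
    {W : ∀ (Q : Type u) [Group Q], Subgroup Q} (hW : Cfsg.IsCharPFunctor.{u} p W)
    (hWK : ∀ (X : Type u) [Group X] (P : Subgroup X), ¬ (Cfsg.inducedFunctor W P).Normal →
      ¬ (Cfsg.inducedFunctor Cfsg.kInfLower P).Normal ∨ ¬ (Cfsg.inducedFunctor Cfsg.kInfUpper P).Normal) :
    ∀ (X : Type u) [Group X], IsSec G X → SF {W} p X := by
  have h𝓦 : ∀ V ∈ ({W} : Set (∀ (Q : Type u) [Group Q], Subgroup Q)), Cfsg.IsCharPFunctor.{u} p V := by
    rintro _ rfl; exact hW
  refine sf_of_local h𝓦 ?_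
  intro X _ _ hX hc
  refine sf_of_normal fun S => ⟨W, rfl, ?_⟩
  by_contra hn
  obtain ⟨g, -, -, -, -, h5⟩ := exists_degree_four S (hWK X _ hn)
  obtain ⟨N, hN, hNst⟩ := h5 hc
  obtain ⟨K, R, hKR, ⟨e⟩⟩ := (hX.quot N).exists_quot
  exact hNst (isNormalizerPStable_of_equiv e (hst K R))

end Cfsg.Agent.Lib.KInf
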