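import Mathlib
import Cfsg.Agent.Lib.PStab.Section
import Cfsg.Agent.Lib.Fusion.QdAction

/-! A group which is not `p`-stable involves `Qd(p)`. -/

set_option autoImplicit false

open Subgroup
open scoped Matrix MatrixGroups commutatorElement

namespace Cfsg.Agent.Lib.KInf

universe u

open Cfsg.Agent.Lib.PStab

/-- For odd `p`, a group without a section `Qd(p)` is `p`-stable in the normalizer form. -/
theorem involves_qd_of_not_stable {p : ℕ} [Fact p.Prime] (hp2 : p ≠ 2) {X : Type u} [Group X] [Finite X]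
    (h : ¬ Cfsg.IsNormalizerPStable p X) : Cfsg.Involves ↥(Cfsg.qd p) X := by
  classical
  by_contra hqd
  refine h fun P hP g hg hq => ?_
  by_contra hbad
  set C := (centralizer (P : Set X)).subgroupOf (normalizer (P : Set X)) with hC
  have hq' : ∀ x ∈ P, Commute g ⁅g, x⁆ := by
    intro x hx
    rw [← commutatorElement_inv]
    refine (Commute.inv_left ?_).symm
    exact commutatorElement_eq_one_iff_commute.mp (mem_bot.mp (hq ▸ commutator_mem_commutator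
      (commutator_mem_commutator hx (mem_zpowers g)) (mem_zpowers g)))
  letI := fratQAddCommGroup hP
  obtain ⟨L, π, θ, hLN, hπ, hθ, hact⟩ := exists_sl2_natural hP hp2 le_rfl hg hq' (fun D hD hDp hgD => by
    refine hbad ((Cfsg.Agent.Lib.Hall.le_pCore (N := D.map (QuotientGroup.mk' C)) ?_) (mem_map_of_mem _ hgD))
    rintro ⟨_, d, hd, rfl⟩
    obtain ⟨n, hn⟩ := hDp d hd
    exact ⟨n, Subtype.ext ((QuotientGroup.eq_one_iff (d ^ p ^ n)).2 hn)⟩)
  let fh : ↥P →* Multiplicative (FratQ P) :=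
    MonoidHom.mk' (fun x => Multiplicative.ofAdd (fq x)) fun a b => congrArg Multiplicative.ofAdd (fq_mul a b)
  let R : Subgroup X := ((AddMonoidHom.toMultiplicative θ).range.comap fh).map P.subtype
  have hRP : R ≤ P := map_subtype_le _
  have hmemR : ∀ r : ↥P, (r : X) ∈ R ↔ ∃ w, θ w = fq r := by
    intro r
    constructor
    · rintro ⟨s, ⟨w, hw⟩, hs⟩
      obtain rfl : s = r := Subtype.ext hs
      exact ⟨w.toAdd, congrArg Multiplicative.toAdd hw⟩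
    · rintro ⟨w, hw⟩
      exact ⟨r, ⟨Multiplicative.ofAdd w, congrArg Multiplicative.ofAdd hw⟩, rfl⟩
  let inv : FratQ P → Fin 2 → ZMod p := Function.invFun θ
  have hinv : ∀ w, inv (θ w) = w := Function.leftInverse_invFun hθ
  let ψ : X → Fin 2 → ZMod p := fun x => if hx : x ∈ P then inv (fq ⟨x, hx⟩) else 0
  have hψ : ∀ (x : ↥P) w, θ w = fq x → ψ x = w := by
    intro x w hw
    show (if hx : (x : X) ∈ P then inv (fq ⟨x, hx⟩) else 0) = w
    rw [dif_pos x.2]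
    show inv (fq x) = w
    rw [← hw, hinv]
  have hconjR : ∀ l : ↥L, ∀ r ∈ R, (l : X) * r * (l : X)⁻¹ ∈ R := by
    intro l r hr
    obtain ⟨w, hw⟩ := (hmemR ⟨r, hRP hr⟩).1 hr
    refine (hmemR (conjIn ⟨l, hLN l.2⟩ ⟨r, hRP hr⟩)).2 ⟨_, (hact l (hLN l.2) w).symm.trans ?_⟩
    rw [hw, fratRep_fq]
  have hactR : ∀ (l : ↥L), ∀ r ∈ R,
      ψ ((l : X) * r * (l : X)⁻¹) = (π l : Matrix (Fin 2) (Fin 2) (ZMod p)) *ᵥ ψ r := by
    intro l r hr
    obtain ⟨w, hw⟩ := (hmemR ⟨r, hRP hr⟩).1 hr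
    rw [hψ ⟨r, hRP hr⟩ w hw]
    refine hψ (conjIn ⟨l, hLN l.2⟩ ⟨r, hRP hr⟩) _ ((hact l (hLN l.2) w).symm.trans ?_)
    rw [hw, fratRep_fq]
  have hadd : ∀ a ∈ R, ∀ b ∈ R, ψ (a * b) = ψ a + ψ b := by
    intro a ha b hb
    obtain ⟨u, hu⟩ := (hmemR ⟨a, hRP ha⟩).1 ha
    obtain ⟨v, hv⟩ := (hmemR ⟨b, hRP hb⟩).1 hb
    rw [hψ ⟨a, hRP ha⟩ u hu, hψ ⟨b, hRP hb⟩ v hv]
    refine hψ (⟨a, hRP ha⟩ * ⟨b, hRP hb⟩) (u + v) ?_
    rw [map_add, hu, hv, fq_mul]
  have hLR : L ≤ normalizer (R : Set X) := fun l hl => by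
    rw [mem_normalizer_iff]
    refine fun x => ⟨fun hx => hconjR ⟨l, hl⟩ x hx, fun hx => ?_⟩
    simpa [mul_assoc] using hconjR ⟨l⁻¹, L.inv_mem hl⟩ _ hx
  have hK : R ⊔ L ≤ normalizer (R : Set X) := sup_le le_normalizer hLR
  refine hqd (Cfsg.Agent.Lib.Fusion.involves_qd_of_qdAction hp2
    (K := R ⊔ L) (R := R) ⟨le_sup_left, hP.to_le hRP, hK, ψ, hadd, fun v => ?_, fun k hk => ?_, fun M => ?_⟩)
  · obtain ⟨x, hx⟩ := fq_surjective P (θ v)
    exact ⟨x, (hmemR x).2 ⟨v, hx.symm⟩, hψ x v hx.symm⟩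
  · obtain ⟨l, hl, a, ha, hk'⟩ := Cfsg.Agent.Lib.Fusion.mem_sup_of_normalizes hLR (show k ∈ L ⊔ R by rwa [sup_comm])
    refine ⟨π ⟨l, hl⟩, fun r hr => ?_⟩
    subst hk'
    have har : a * r * a⁻¹ ∈ R := R.mul_mem (R.mul_mem ha hr) (R.inv_mem ha)
    have e : ψ (a * r * a⁻¹) = ψ r := by
      have h1 := hadd (a * r * a⁻¹) har a ha
      rw [inv_mul_cancel_right, hadd a ha r hr, add_comm (ψ a)] at h1
      exact (add_right_cancel h1).symm
    rw [show l * a * r * (l * a)⁻¹ = l * (a * r * a⁻¹) * l⁻¹ by group, hactR ⟨l, hl⟩ _ har, e]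
  · obtain ⟨l, rfl⟩ := hπ M
    exact ⟨l, mem_sup_right l.2, fun r hr => hactR l r hr⟩

end Cfsg.Agent.Lib.KInf
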